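import Cfsg.Agent.Lib.SLD.Inv
import Cfsg.Agent.Lib.SLD.Cen
import Cfsg.Agent.Lib.SLD.Ys

/-! Involutions `ρ u v` of an orthogonal group of dimension 8 over the field with two elements. -/

set_option autoImplicit false
set_option linter.unusedSectionVars false

namespace CfsgLib.F22W

open Subgroup QuadraticMap CfsgLib.OrthE CfsgLib.SLD Module

variable {F V : Type} [Field F] [Finite F] [AddCommGroup V] [Module F V] [Finite V] {Q : QuadraticForm F V}

theorem oa_ex {A C : Submodule F V} (h : finrank F A < finrank F C) : ∃ x ∈ C, x ∉ A := by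
  by_contra hno
  push Not at hno
  exact absurd (Submodule.finrank_mono (show C ≤ A from hno)) (by omega)

theorem oa_pp3 {u v w x : V} : x ∈ pp Q (ln F u v ⊔ Submodule.span F {w}) ↔
    polar Q x u = 0 ∧ polar Q x v = 0 ∧ polar Q x w = 0 := by
  rw [pp_sup, Submodule.mem_inf, mem_pp_ln, mem_pp_one, and_assoc]

theorem oa_dim3 (u v w : V) : finrank F (ln F u v ⊔ Submodule.span F {w} : Submodule F V) ≤ 3 := by
  have := finrank_sup_one (ln F u v) w
  have := finrank_ln_le (F := F) u v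
  omega

theorem oa_c {x y : V} (e : polar Q x y = 0) : polar Q y x = 0 := by rw [polar_comm, e]

/-- step 1 -/
theorem oa_1 (h : OS0 Q 4) (hq : Nat.card F = 2) {u v e f : V} (hu : Q u = 0) (u0 : u ≠ 0) (hv : polar Q u v = 0)
    (hh : Hyp Q e f) (eu : polar Q e u = 0) (ev : polar Q e v = 0) (fu : polar Q f u = 0) (fv : polar Q f v = 0)
    {γ : SI Q} (H : ∀ x, polar Q u x = 0 → γ * ρ Q u x * γ⁻¹ = ρ Q u x ∨ γ * ρ Q u x * γ⁻¹ = ρ Q u v * ρ Q u x) :
    ∃ w r, polar Q u w = 0 ∧ γ = ρ Q u w * r ∧ r * r = 1 ∧ (∀ δ : SI Q, δ • v = v → Commute δ r) ∧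
      ∀ x, polar Q x v = 0 → r • x = x := by
  have hσ : γ.σ = 1 := σ_eq_one hq _
  have H' : ∀ x, polar Q u x = 0 → ∃ c : F, ρ Q u (x + c • v) = ρ Q (γ • u) (γ • x) := by
    intro x hx
    rcases H x hx with e1 | e1 <;> rw [conj_ρ] at e1
    · exact ⟨0, by rw [e1, zero_smul, add_zero]⟩
    · exact ⟨1, by rw [e1, one_smul, ρ_mul hu hv hx, add_comm]⟩
  have img : ∀ x y, polar Q u x = 0 → polar Q y x = 1 → polar Q y u = 0 →
      ∃ a b c : F, γ • u = a • u + b • (x + c • v) := by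
    intro x y hx h1 h2
    obtain ⟨c, hc⟩ := H' x hx
    obtain ⟨a, b, hab⟩ := h.ρ_img (u := γ • u) (v := γ • x) (by rw [lin_map hσ, hu]) (by rw [lin_pol hσ, hx])
      (fun s e1 => by
        rw [← lin_smul hσ, smul_left_cancel_iff] at e1
        rw [e1, polar_smul_right, h2, smul_zero] at h1
        exact zero_ne_one h1) hu (by rw [polar_add_right, polar_smul_right, hx, hv, smul_zero, add_zero]) hc
    exact ⟨a, b, c, hab⟩
  have gu : γ • u = u := by
    obtain ⟨a, b, c, e1⟩ := img e f (oa_c eu) hh.hfe fu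
    obtain ⟨a', b', c', e2⟩ := img f e (oa_c fu) hh.hef eu
    have p1 : polar Q f (γ • u) = b := by
      rw [e1]; simp [polar_add_right, polar_smul_right, fu, fv, hh.hfe]
    have p2 : polar Q f (γ • u) = 0 := by
      rw [e2]; simp [polar_add_right, polar_smul_right, fu, fv, h.pol_self]
    rw [← p1, p2, zero_smul, add_zero] at e1
    rcases zero_or_one hq a with rfl | rfl
    · rw [zero_smul, smul_eq_zero_iff_eq] at e1; exact absurd e1 u0
    · rw [e1, one_smul]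
  have hT : TS Q (Submodule.span F {u}) := ts_span (by simpa using hu) (by simpa using h.pol_self u)
  have fu' : ∀ {δ : SI Q}, δ.σ = 1 → δ • u = u → ∀ t ∈ Submodule.span F {u}, δ • t = t := by
    intro δ h1 h2 t ht
    obtain ⟨s, rfl⟩ := Submodule.mem_span_singleton.1 ht
    rw [lin_smul h1, h2]
  rcases h.rank_one hσ hT (v := v) (mem_pp_one.2 (oa_c hv)) (fun x hx => by
    have hx' := oa_c (mem_pp_one.1 hx)
    obtain ⟨c, hc⟩ := H' x hx'
    rw [gu] at hc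
    obtain ⟨s, hs⟩ := h.ρ_inj hu u0 (by rw [polar_add_right, polar_smul_right, hx', hv, smul_zero, add_zero])
      (by rw [← gu, lin_pol hσ, hx']) hc
    exact ⟨c, Submodule.mem_span_singleton.2 ⟨s, by rw [hs]; abel⟩⟩) with h1 | ⟨qv, h1⟩
  · have : γ ∈ A Q u := h.NT_one hu ▸ mem_NT.2 ⟨hσ, fu' hσ gu, h1⟩
    obtain ⟨w, hw, e1⟩ := (mem_A hu).1 this
    exact ⟨w, 1, hw, by rw [mul_one, e1], mul_one _, fun δ _ => Commute.one_right _, fun x _ => one_smul _ _⟩
  · have ru : rf Q v • u = u := rf_fix hv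
    have : γ * rf Q v ∈ A Q u := h.NT_one hu ▸ mem_NT.2 ⟨σ_eq_one hq _, fu' (σ_eq_one hq _) (by
      rw [mul_smul, ru, gu]), fun x hx => by
        have := h1 (rf Q v • x) (mem_pp_one.2 (by rw [← ru, lin_pol (σ_rf v), mem_pp_one.1 hx]))
        rwa [← mul_smul (rf Q v), rf_sq, one_smul, ← mul_smul] at this⟩
    obtain ⟨w, hw, e1⟩ := (mem_A hu).1 this
    refine ⟨w, rf Q v, hw, by rw [← e1, mul_assoc, rf_sq, mul_one], rf_sq v, fun δ hδ => ?_, fun x hx => rf_fix hx⟩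
    have := conj_rf δ v
    rw [hδ] at this
    exact mul_inv_eq_iff_eq_mul.1 this

/-- step 2 -/
theorem oa_2 (h : OS0 Q 4) {u v e w : V} (hu : Q u = 0) (u0 : u ≠ 0) (hv : polar Q u v = 0)
    (qe : Q e = 0) (eu : polar Q e u = 0) (ne : e ∉ ln F u v) (hw : polar Q u w = 0)
    (H : ∀ x, polar Q x u = 0 → polar Q x v = 0 → polar Q x e = 0 →
      ρ Q u w * ρ Q e x * (ρ Q u w)⁻¹ = ρ Q e x ∨ ρ Q u w * ρ Q e x * (ρ Q u w)⁻¹ = ρ Q u v * ρ Q e x) :
    w ∈ ln F u v ⊔ Submodule.span F {e} := by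
  have K : ∀ x, polar Q x u = 0 → polar Q x v = 0 → polar Q x e = 0 →
      (polar Q w x + Q x * polar Q w e) • e + polar Q w e • x ∈ ln F u v := by
    intro x xu xv xe
    obtain ⟨c1, c2⟩ := h.cen_comm (n := ρ Q e x) hu hw (ρ_fix (oa_c eu) (oa_c xu))
    have e1 : ρ Q e x • w - w = (polar Q w x + Q x * polar Q w e) • e + polar Q w e • x := by
      rw [h.ρ_smul qe (oa_c xe)]; module
    rw [← e1]
    rcases H x xu xv xe with e2 | e2 <;> rw [e2] at c2
    · rw [mul_inv_cancel] at c2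
      obtain ⟨s, hs⟩ := h.ρ_eq_one hu u0 c1 c2.symm
      rw [hs]; exact Submodule.smul_mem _ _ (left_mem_ln u v)
    · rw [mul_inv_cancel_right] at c2
      obtain ⟨s, hs⟩ := h.ρ_inj hu u0 hv c1 c2
      rw [hs]; exact Submodule.add_mem _ (right_mem_ln u v) (Submodule.smul_mem _ _ (left_mem_ln u v))
  have we : polar Q w e = 0 := by
    by_contra hne
    obtain ⟨x, hx, nx⟩ := oa_ex (A := ln F u v ⊔ Submodule.span F {e}) (C := pp Q (ln F u v ⊔ Submodule.span F {e})) (by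
      have := oa_dim3 (F := F) u v e
      have := h.finrank_pp (ln F u v ⊔ Submodule.span F {e})
      omega)
    obtain ⟨xu, xv, xe⟩ := oa_pp3.1 hx
    apply nx
    have h1 := Submodule.mem_sup_left (T := Submodule.span F {e}) (K x xu xv xe)
    have h2 : (polar Q w x + Q x * polar Q w e) • e ∈ ln F u v ⊔ Submodule.span F {e} :=
      Submodule.mem_sup_right (Submodule.smul_mem _ _ (Submodule.mem_span_singleton_self e))
    exact (Submodule.smul_mem_iff _ hne).1 ((Submodule.add_mem_iff_right _ h2).1 h1)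
  rw [← h.pp_pp (ln F u v ⊔ Submodule.span F {e}), mem_pp]
  intro x hx
  obtain ⟨xu, xv, xe⟩ := oa_pp3.1 hx
  have := K x xu xv xe
  rw [we, mul_zero, add_zero, zero_smul, add_zero] at this
  by_contra hne
  exact ne ((Submodule.smul_mem_iff _ hne).1 this)

theorem oa (h : OS0 Q 4) (hq : Nat.card F = 2) {u v : V} (hu : Q u = 0) (u0 : u ≠ 0) (hv : polar Q u v = 0)
    (hi : ∀ s : F, v ≠ s • u) : ∃ P₀ : Subgroup (SI Q), P₀ ≤ Om Q ∧ IsPGroup 2 P₀ ∧
      (∀ n ∈ P₀, Commute n (ρ Q u v)) ∧ ∀ γ : SI Q, γ ≠ 1 → γ ≠ ρ Q u v →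
        (∀ n ∈ P₀, γ * n * γ⁻¹ = n ∨ γ * n * γ⁻¹ = ρ Q u v * n) → γ * γ = 1 ∧
          ∀ M : Subgroup (SI Q), (∀ x ∈ Om Q, Commute x (ρ Q u v) → x ∈ M) →
            (∀ x ∈ Om Q, Commute x γ ∨ Commute x (ρ Q u v * γ) → x ∈ M) → Om Q ≤ M := by
  obtain ⟨e, me, ne, qe⟩ := exs (Q := Q) (A := ln F u v) (C := pp Q (ln F u v))
    (Submodule.span_le.2 (by
      rintro x (rfl | rfl)
      · exact mem_pp_ln.2 ⟨h.pol_self _, hv⟩
      · exact mem_pp_ln.2 ⟨oa_c hv, h.pol_self _⟩)) (by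
      have := finrank_ln_le (F := F) u v
      have := h.finrank_pp (ln F u v)
      omega)
  obtain ⟨f, mf, hh⟩ := h.exists_partner qe ne me
  obtain ⟨eu, ev⟩ := mem_pp_ln.1 me
  obtain ⟨fu, fv⟩ := mem_pp_ln.1 mf
  have r : RP Q u e := ⟨hu, qe, oa_c eu, u0, fun s e1 => ne (e1 ▸ Submodule.smul_mem _ _ (left_mem_ln u v))⟩
  obtain ⟨E, Ff, fr, e0, e1⟩ := h.fr_rp r
  refine ⟨UF Q E (4 - 1) ⊓ centralizer {ρ Q u v}, inf_le_left.trans (UF_le_Om _ _), (h.UF_two fr).to_inf_left,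
    fun n hn => mem_centralizer_singleton_iff.1 hn.2, fun γ _ _ H => ?_⟩
  obtain ⟨w, s, hw, rfl, ss, cs, fs⟩ := oa_1 h hq hu u0 hv hh eu ev fu fv (γ := γ) fun x hx => H _ ⟨by
    rw [← e0]
    exact ρ_mem_UF (by norm_num) (by rw [Tn_one, e0]; exact mem_pp_one.2 (oa_c hx)),
      mem_centralizer_singleton_iff.2 (ρ_comm u x v)⟩
  have hw3 := oa_2 h hu u0 hv qe eu ne hw fun x xu xv xe => by
    have f1 : ρ Q e x • v = v := ρ_fix (oa_c ev) (oa_c xv)
    have := H (ρ Q e x) ⟨by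
      rw [← e1]
      exact ρ_mem_UF (by norm_num) (by rw [Tn_two, e0, e1]; exact mem_pp_ln.2 ⟨xu, xe⟩),
        mem_centralizer_singleton_iff.2 (comm_ρ_of_fix (ρ_fix (oa_c eu) (oa_c xu)) f1)⟩
    rwa [show ρ Q u w * s * ρ Q e x * (ρ Q u w * s)⁻¹ = ρ Q u w * (s * ρ Q e x * s⁻¹) * (ρ Q u w)⁻¹ by group,
      ← (cs _ f1).eq, mul_inv_cancel_right] at this
  obtain ⟨y, hy, z, hz, rfl⟩ := Submodule.mem_sup.1 hw3
  obtain ⟨α, c, rfl⟩ := mem_ln.1 hy
  obtain ⟨β, rfl⟩ := Submodule.mem_span_singleton.1 hz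
  have ue : polar Q u (β • e) = 0 := by rw [polar_smul_right, oa_c eu, smul_zero]
  have uc : polar Q u (c • v) = 0 := by rw [polar_smul_right, hv, smul_zero]
  have ew : ρ Q u (α • u + c • v + β • e) = ρ Q u (c • v) * ρ Q u (β • e) := by
    rw [ρ_mul hu uc ue, ← ρ_add_self α hu (v := c • v + β • e) (by rw [polar_add_right, ue, uc, add_zero])]
    congr 1; abel
  refine ⟨?_, fun M M1 M2 => ?_⟩
  · have : Commute s (ρ Q u (α • u + c • v + β • e)) := comm_ρ_of_fix (fs u hv) (fs _ (by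
      simp [polar_add_left, polar_smul_left, hv, ev, h.pol_self]))
    rw [mul_assoc, ← mul_assoc s, this.eq, mul_assoc, ss, mul_one, h.ρ_sq]
  obtain ⟨y, my, uy⟩ := h.exists_pol (T := ln F e v) (x := u) (by
    intro hm
    obtain ⟨p, q, e2⟩ := mem_ln.1 hm
    have p0 : p = 0 := by
      have := fu
      rw [← e2] at this
      simpa [polar_add_right, polar_smul_right, hh.hfe, fv] using this
    rw [p0, zero_smul, zero_add] at e2
    rcases zero_or_one hq q with rfl | rfl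
    · exact u0 (by rw [← e2, zero_smul])
    · exact hi 1 (by rw [← e2, one_smul, one_smul]))
  obtain ⟨ye, yv⟩ := mem_pp_ln.1 my
  have a1 : ρ Q u f • e = e + u := by rw [ρ_left hu (oa_c fu) eu, hh.hef, one_smul]
  have a2 : ρ Q e y • u = u + e := by rw [ρ_left qe (oa_c ye) (oa_c eu), uy, one_smul]
  have t1 : (ρ Q u f * ρ Q e y * ρ Q u f) • u = e := by
    rw [mul_smul, mul_smul, ρ_fix_self, a2, smul_add, ρ_fix_self, a1, add_comm e, ← add_assoc, h.addV, zero_add]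
  have t2 : (ρ Q u f * ρ Q e y * ρ Q u f) • e = u := by
    rw [mul_smul, mul_smul, a1, smul_add, ρ_fix_self, a2, add_comm u, ← add_assoc, h.addV, zero_add, ρ_fix_self]
  have t3 : (ρ Q u f * ρ Q e y * ρ Q u f) • v = v := by
    rw [mul_smul, mul_smul, ρ_fix (oa_c hv) (oa_c fv), ρ_fix (oa_c ev) (oa_c yv), ρ_fix (oa_c hv) (oa_c fv)]
  have tO : ρ Q u f * ρ Q e y * ρ Q u f ∈ Om Q := mul_mem (mul_mem (ρ_mem Q _ _) (ρ_mem Q _ _)) (ρ_mem Q _ _)
  generalize ρ Q u f * ρ Q e y * ρ Q u f = τ at t1 t2 t3 tO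
  have ct : Commute τ (ρ Q u (β • e) * s) := (comm_ρ (by
    rw [t1, lin_smul (σ_Om tO), t2, h.ρ_swap_smul hu qe (oa_c eu)])).mul_right (cs τ t3)
  have tM : τ ∈ M := by
    apply M2 τ tO
    rw [ew]
    rcases zero_or_one hq c with rfl | rfl
    · left; rwa [zero_smul, ρ_zero, one_mul]
    · right; rwa [one_smul, ← mul_assoc, ← mul_assoc, h.ρ_sq, one_mul]
  have Au : A Q u ≤ M := A_le fun x _ _ => M1 _ (ρ_mem Q _ _) (ρ_comm u x v)
  have Ae : A Q e ≤ M := t1 ▸ Ys.A_conj tM Au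
  obtain ⟨δ, d1, d2, d3⟩ := h.move_one qe hh.hf me mf (by rw [hh.hef]; exact one_ne_zero)
  obtain ⟨n, mn, qn⟩ := h.exists_ns (C := pp Q (ln F u v ⊔ Submodule.span F {e})) (by
    have := oa_dim3 (F := F) u v e
    have := h.finrank_pp (ln F u v ⊔ Submodule.span F {e})
    omega)
  obtain ⟨nu, nv, ne'⟩ := oa_pp3.1 mn
  have ex : ∃ δ' ∈ Om Q, δ' • u = u ∧ δ' • v = v ∧ δ' • e = f := by
    rcases h.lin_cases d1 qn with d4 | d4
    · exact ⟨δ, d4, d2 u (left_mem_ln u v), d2 v (right_mem_ln u v), d3⟩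
    · exact ⟨_, d4, by rw [mul_smul, rf_fix (oa_c nu), d2 u (left_mem_ln u v)],
        by rw [mul_smul, rf_fix (oa_c nv), d2 v (right_mem_ln u v)], by rw [mul_smul, rf_fix (oa_c ne'), d3]⟩
  obtain ⟨δ', k1, k2, k3, k4⟩ := ex
  have Af : A Q f ≤ M := k4 ▸ Ys.A_conj (M1 _ k1 (comm_ρ_of_fix k2 k3)) Ae
  exact (h.gen_A hh).trans (sup_le Ae Af)

end CfsgLib.F22W
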