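import Cfsg.Agent.Lib.SLD.Inv
import Cfsg.Agent.Lib.SLD.Cen

/-! The other involutions of an orthogonal group of dimension 8 over the field with two elements. -/

set_option autoImplicit false
set_option linter.unusedSectionVars false

namespace CfsgLib.F22W

open Subgroup QuadraticMap CfsgLib.OrthE CfsgLib.SLD Module

variable {F V : Type} [Field F] [Finite F] [AddCommGroup V] [Module F V] [Finite V] {Q : QuadraticForm F V}

theorem ob_c {x y : V} (e : polar Q x y = 0) : polar Q y x = 0 := by rw [polar_comm, e]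

theorem ob_T (h : OS0 Q 4) {a : SI Q} (ha : a ∈ Om Q) (a2 : a * a = 1)
    (hn : ∀ u v, Q u = 0 → polar Q u v = 0 → a ≠ ρ Q u v) : ∃ u v, RP Q u v ∧ a ∈ NT Q (ln F u v) ∧
      ∀ t ∈ ln F u v, ∃ x ∈ pp Q (ln F u v), a • x - x = t := by
  obtain ⟨T, hT, hN, on⟩ := h.exists_T ha a2
  obtain ⟨θ, hθ⟩ := exists_th (σ_Om ha)
  have d1 := LinearMap.finrank_range_add_finrank_ker (θ.comp (pp Q T).subtype)
  have d2 : finrank F T ≤ finrank F (LinearMap.range (θ.comp (pp Q T).subtype)) := Submodule.finrank_mono fun u hu => by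
    obtain ⟨x, hx, e⟩ := on u hu
    exact ⟨⟨x, hx⟩, by rw [← e, hθ, add_sub_cancel_left]; rfl⟩
  have d3 : finrank F T ≤ finrank F (LinearMap.ker (θ.comp (pp Q T).subtype)) := by
    rw [← (Submodule.comapSubtypeEquivOfLe hT.le_pp).finrank_eq]
    apply Submodule.finrank_mono
    intro x hx
    have := hN.2.1 _ hx
    rw [hθ] at this
    exact add_eq_left.1 this
  have d4 := h.finrank_pp T
  obtain ⟨e, f, fr, he⟩ := h.fr_of_sub hT
  have : finrank F T = 0 ∨ finrank F T = 1 ∨ finrank F T = 2 := by omega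
  rcases this with d | d | d <;> rw [d] at fr he
  · exfalso
    rw [Tn_zero] at he
    subst he
    exact hn 0 0 (map_zero _) (polar_zero_left _ _) (by
      rw [ρ_zero]
      exact lin_ext hN.1 σ_one fun x => by rw [one_smul]; exact sub_eq_zero.1 (hN.2.2 x (mem_pp_bot x)))
  · exfalso
    rw [Tn_one] at he
    subst he
    rw [h.NT_one (fr.qe 0 (by norm_num))] at hN
    obtain ⟨v, hv, e1⟩ := (mem_A (fr.qe 0 (by norm_num))).1 hN
    exact hn _ _ (fr.qe 0 (by norm_num)) hv e1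
  · rw [Tn_two] at he
    subst he
    exact ⟨_, _, fr.rp (by norm_num) (by norm_num) (by norm_num), hN, on⟩

section
variable (h : OS0 Q 4) {u v : V} (r : RP Q u v)
include h r

theorem ob_act {y1 y2 x : V} (h1 : y1 ∈ pp Q (ln F u v)) (h2 : y2 ∈ pp Q (ln F u v)) (hx : x ∈ pp Q (ln F u v)) :
    (ρ Q u y1 * ρ Q v y2) • x = x + polar Q x y1 • u + polar Q x y2 • v := by
  obtain ⟨a1, a2⟩ := mem_pp_ln.1 h1
  obtain ⟨b1, b2⟩ := mem_pp_ln.1 h2
  obtain ⟨c1, c2⟩ := mem_pp_ln.1 hx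
  rw [mul_smul, ρ_left r.qv (ob_c b2) c2, smul_add, ρ_left r.qu (ob_c a1) c1, lin_smul (σ_ρ _ _),
    ρ_fix r.vu (ob_c a2)]

theorem ob_mul {y1 y2 x1 x2 : V} (h1 : y1 ∈ pp Q (ln F u v)) (h2 : y2 ∈ pp Q (ln F u v))
    (k1 : x1 ∈ pp Q (ln F u v)) (k2 : x2 ∈ pp Q (ln F u v)) :
    ρ Q u y1 * ρ Q v y2 * (ρ Q u x1 * ρ Q v x2) =
      ρ Q u (y1 + x1) * ρ Q u (polar Q x1 y2 • v) * ρ Q v (y2 + x2) := by
  obtain ⟨a1, a2⟩ := mem_pp_ln.1 h1
  obtain ⟨b1, b2⟩ := mem_pp_ln.1 h2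
  obtain ⟨c1, c2⟩ := mem_pp_ln.1 k1
  obtain ⟨d1, d2⟩ := mem_pp_ln.1 k2
  have e := h.ρ_conj_ρ r.qv r.qu r.vu (ob_c b2) (ob_c b1) (ob_c c2) (ob_c c1)
  rw [h.ρ_swap_smul r.qu r.qv r.uv, polar_comm] at e
  rw [← ρ_mul r.qu (ob_c a1) (ob_c c1), ← ρ_mul r.qv (ob_c b2) (ob_c d2), mul_assoc (ρ Q u y1) (ρ Q u x1), ← e]
  group

theorem ob_comm {y1 y2 x1 x2 : V} (h1 : y1 ∈ pp Q (ln F u v)) (h2 : y2 ∈ pp Q (ln F u v))
    (k1 : x1 ∈ pp Q (ln F u v)) (k2 : x2 ∈ pp Q (ln F u v)) :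
    Commute (ρ Q u y1 * ρ Q v y2) (ρ Q u x1 * ρ Q v x2) ↔ polar Q x1 y2 = polar Q y1 x2 := by
  rw [commute_iff_eq, ob_mul h r h1 h2 k1 k2, ob_mul h r k1 k2 h1 h2, add_comm y1, add_comm y2, mul_left_inj,
    mul_right_inj]
  exact ⟨h.ρ_smul_inj r, fun e => by rw [e]⟩

end

theorem ob_pt (h : OS0 Q 4) (hq : Nat.card F = 2) {a γ : SI Q} (a2 : a * a = 1)
    (hn : ∀ u v, Q u = 0 → polar Q u v = 0 → a ≠ ρ Q u v) {l H : Submodule F V} (hl : finrank F l ≤ 2)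
    (hH : 4 ≤ finrank F H) {p : V} (hp : p ∈ l) (qp : Q p = 0) (p0 : p ≠ 0) (gp : γ • p ∈ l)
    (H1 : ∀ x ∈ H, polar Q p x = 0) (H2 : ∀ x ∈ H, Commute (ρ Q p x) a)
    (H3 : ∀ x ∈ H, γ * ρ Q p x * γ⁻¹ = ρ Q p x ∨ γ * ρ Q p x * γ⁻¹ = a * ρ Q p x) :
    γ • p = p ∧ ∀ x ∈ H, γ • x - x ∈ l := by
  have hσ : γ.σ = 1 := σ_eq_one hq _
  have K : ∀ x ∈ H, x ∉ l → γ * ρ Q p x * γ⁻¹ = ρ Q p x → γ • p = p := by
    intro x hx nx e
    rw [conj_ρ] at e
    obtain ⟨s, t, hst⟩ := h.ρ_img (u := γ • p) (v := γ • x) (by rw [lin_map hσ, qp]) (by rw [lin_pol hσ, H1 x hx])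
      (fun s e1 => by
        rw [← lin_smul hσ, smul_left_cancel_iff] at e1
        exact nx (e1 ▸ l.smul_mem _ hp)) qp (H1 x hx) e.symm
    rcases zero_or_one hq t with rfl | rfl
    · rw [zero_smul, add_zero] at hst
      rcases zero_or_one hq s with rfl | rfl
      · rw [zero_smul, smul_eq_zero_iff_eq] at hst; exact absurd hst p0
      · rw [hst, one_smul]
    · rw [hst, one_smul] at gp
      exact absurd ((l.add_mem_iff_right (l.smul_mem _ hp)).1 gp) nx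
  have gp' : γ • p = p := by
    by_contra hne
    obtain ⟨x, hx, nx⟩ := exists_notMem_lt (A := l) (C := H) (by omega)
    obtain ⟨y, hy, ny⟩ := exists_notMem_lt (A := l ⊔ Submodule.span F {x}) (C := H) (by
      have := finrank_sup_one l x
      omega)
    have e1 := (H3 x hx).resolve_left fun e => hne (K x hx nx e)
    have e2 := (H3 y hy).resolve_left fun e => hne (K y hy (fun m => ny (Submodule.mem_sup_left m)) e)
    apply hne
    apply K (x + y) (H.add_mem hx hy) (fun m => ny ((Submodule.add_mem_iff_right _ (Submodule.mem_sup_right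
      (Submodule.mem_span_singleton_self x))).1 (Submodule.mem_sup_left m)))
    rw [← ρ_mul qp (H1 x hx) (H1 y hy)]
    calc _ = (γ * ρ Q p x * γ⁻¹) * (γ * ρ Q p y * γ⁻¹) := by group
      _ = a * (ρ Q p x * a) * ρ Q p y := by rw [e1, e2]; group
      _ = _ := by rw [(H2 x hx).eq, ← mul_assoc, a2, one_mul]
  refine ⟨gp', fun x hx => ?_⟩
  have px : polar Q p (γ • x) = 0 := by rw [← gp', lin_pol hσ, H1 x hx]
  rcases H3 x hx with e | e <;> rw [conj_ρ, gp'] at e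
  · obtain ⟨s, hs⟩ := h.ρ_inj qp p0 (H1 x hx) px e.symm
    rw [hs, add_sub_cancel_left]; exact l.smul_mem _ hp
  · exact absurd (by rw [← ρ_mul qp px (H1 x hx), e, mul_assoc, h.ρ_sq, mul_one])
      (hn p (γ • x + x) qp (by rw [polar_add_right, px, H1 x hx, add_zero]))

theorem ob (h : OS0 Q 4) (hq : Nat.card F = 2) {a : SI Q} (ha : a ∈ Om Q) (a2 : a * a = 1)
    (hn : ∀ u v, Q u = 0 → polar Q u v = 0 → a ≠ ρ Q u v) : ∃ P₀ : Subgroup (SI Q), P₀ ≤ Om Q ∧ IsPGroup 2 P₀ ∧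
      (∀ n ∈ P₀, Commute n a) ∧ ∃ u v, RP Q u v ∧ Commute a (ρ Q u v) ∧ ∀ γ : SI Q, γ ≠ 1 → γ ≠ a →
        (∀ n ∈ P₀, γ * n * γ⁻¹ = n ∨ γ * n * γ⁻¹ = a * n) → γ = ρ Q u v ∨ γ = a * ρ Q u v := by
  obtain ⟨u, v, r, hN, on⟩ := ob_T h ha a2 hn
  obtain ⟨w1, m1, w2, m2, ea⟩ := h.mem_NT_ln r hN
  have ex : ∀ s t : F, ∃ x ∈ pp Q (ln F u v), polar Q x w1 = s ∧ polar Q x w2 = t := by
    intro s t
    obtain ⟨x, hx, e⟩ := on (s • u + t • v) (mem_ln.2 ⟨s, t, rfl⟩)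
    rw [ea, ob_act h r m1 m2 hx] at e
    have := r.eq_zero (a := polar Q x w1 - s) (b := polar Q x w2 - t) (by
      rw [← sub_eq_zero] at e
      rw [← e]; module)
    exact ⟨x, hx, sub_eq_zero.1 this.1, sub_eq_zero.1 this.2⟩
  obtain ⟨x1, n1, p11, p12⟩ := ex 1 0
  obtain ⟨x2, n2, p21, p22⟩ := ex 0 1
  have z0 := (pp Q (ln F u v)).zero_mem
  have mem : ∀ y1 ∈ pp Q (ln F u v), ∀ y2 ∈ pp Q (ln F u v), polar Q y1 w2 = polar Q y2 w1 →
      ρ Q u y1 * ρ Q v y2 ∈ NT Q (ln F u v) ⊓ centralizer {a} := fun y1 h1 y2 h2 e =>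
    ⟨mul_mem (ρ_mem_NT r.ts (left_mem_ln u v) h1) (ρ_mem_NT r.ts (right_mem_ln u v) h2),
      mem_centralizer_singleton_iff.2 (by
        rw [ea]; exact ((ob_comm h r m1 m2 h1 h2).2 (by rw [e, polar_comm])).symm)⟩
  have memu : ∀ y ∈ pp Q (ln F u v), polar Q y w2 = 0 → ρ Q u y ∈ NT Q (ln F u v) ⊓ centralizer {a} := fun y hy e => by
    have := mem y hy 0 z0 (by rw [e, polar_zero_left])
    rwa [ρ_zero, mul_one] at this
  have memv : ∀ y ∈ pp Q (ln F u v), polar Q y w1 = 0 → ρ Q v y ∈ NT Q (ln F u v) ⊓ centralizer {a} := fun y hy e => by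
    have := mem 0 z0 y hy (by rw [e, polar_zero_left])
    rwa [ρ_zero, one_mul] at this
  refine ⟨NT Q (ln F u v) ⊓ centralizer {a}, inf_le_left.trans (h.NT_le_Om r.ts), (h.NT_two r.ts).to_inf_left,
    fun n hn => mem_centralizer_singleton_iff.1 hn.2, u, v, r,
    comm_ρ_of_fix (hN.2.1 u (left_mem_ln u v)) (hN.2.1 v (right_mem_ln u v)), fun γ g1 g2 H => ?_⟩
  have pp3 : ∀ w x, x ∈ pp Q (ln F u v ⊔ Submodule.span F {w}) ↔ x ∈ pp Q (ln F u v) ∧ polar Q x w = 0 := fun w x => by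
    rw [pp_sup, Submodule.mem_inf, mem_pp_one]
  have dim : ∀ w, 4 ≤ finrank F (pp Q (ln F u v ⊔ Submodule.span F {w})) := fun w => by
    have := finrank_sup_one (ln F u v) w
    have := finrank_ln_le (F := F) u v
    have := h.finrank_pp (ln F u v ⊔ Submodule.span F {w})
    omega
  have cz : Commute γ (ρ Q u v) := by
    obtain ⟨y, hy, e⟩ := h.exists_pol (T := ln F u v ⊔ Submodule.span F {w1}) (x := x1) (fun m => by
      have := (pp3 w1 w1).2 ⟨m1, h.pol_self _⟩ x1 m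
      rw [polar_comm, p11] at this
      exact one_ne_zero this)
    obtain ⟨hy1, hy2⟩ := (pp3 _ _).1 hy
    obtain ⟨a1, a2'⟩ := mem_pp_ln.1 n1
    obtain ⟨b1, b2⟩ := mem_pp_ln.1 hy1
    have e1 := h.ρ_conj_ρ r.qu r.qv r.uv (ob_c a1) (ob_c a2') (ob_c b1) (ob_c b2)
    rw [e, one_smul] at e1
    have e2 : ρ Q u v = (ρ Q v y)⁻¹ * (ρ Q u x1 * ρ Q v y * (ρ Q u x1)⁻¹) := by rw [e1]; group
    have c1 : Commute (ρ Q u x1) a := mem_centralizer_singleton_iff.1 (memu x1 n1 p12).2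
    have c2 : Commute (ρ Q v y) a := mem_centralizer_singleton_iff.1 (memv y hy1 hy2).2
    have k1 := H _ (memu x1 n1 p12)
    have k2 := H _ (memv y hy1 hy2)
    rw [commute_iff_eq, ← mul_inv_eq_iff_eq_mul, e2]
    generalize ρ Q u x1 = n at c1 k1
    generalize ρ Q v y = n' at c2 k2
    have e3 : γ * (n'⁻¹ * (n * n' * n⁻¹)) * γ⁻¹ = (γ * n' * γ⁻¹)⁻¹ * ((γ * n * γ⁻¹) * (γ * n' * γ⁻¹) * (γ * n * γ⁻¹)⁻¹) := by
      group
    have e4 : a * n * n' * (a * n)⁻¹ = n * n' * n⁻¹ := by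
      rw [show a * n * n' * (a * n)⁻¹ = a * (n * n' * n⁻¹) * a⁻¹ by group,
        ← ((c1.mul_left c2).mul_left c1.inv_left).eq, mul_inv_cancel_right]
    have e5 : ∀ m, Commute m a → (a * n')⁻¹ * (m * (a * n') * m⁻¹) = n'⁻¹ * (m * n' * m⁻¹) := fun m c => by
      rw [← mul_assoc m, c.eq]; group
    rw [e3]
    rcases k1 with k1 | k1 <;> rcases k2 with k2 | k2 <;> rw [k1, k2]
    · exact e5 n c1
    · rw [e4]
    · rw [e5 _ ((Commute.refl a).mul_left c1), e4]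
  have st := h.stab_ln r cz
  obtain ⟨gu, Hu⟩ := ob_pt h hq a2 hn (finrank_ln_le u v) (dim w2) (left_mem_ln u v) r.qu r.u0 (st u (left_mem_ln u v))
    (fun x hx => ob_c (mem_pp_ln.1 ((pp3 _ _).1 hx).1).1)
    (fun x hx => mem_centralizer_singleton_iff.1 (memu x ((pp3 _ _).1 hx).1 ((pp3 _ _).1 hx).2).2)
    fun x hx => H _ (memu x ((pp3 _ _).1 hx).1 ((pp3 _ _).1 hx).2)
  obtain ⟨gv, Hv⟩ := ob_pt h hq a2 hn (finrank_ln_le u v) (dim w1) (right_mem_ln u v) r.qv r.v0 (st v (right_mem_ln u v))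
    (fun x hx => ob_c (mem_pp_ln.1 ((pp3 _ _).1 hx).1).2)
    (fun x hx => mem_centralizer_singleton_iff.1 (memv x ((pp3 _ _).1 hx).1 ((pp3 _ _).1 hx).2).2)
    fun x hx => H _ (memv x ((pp3 _ _).1 hx).1 ((pp3 _ _).1 hx).2)
  have hσ : γ.σ = 1 := σ_eq_one hq _
  have gN : γ ∈ NT Q (ln F u v) := mem_NT.2 ⟨hσ, fun t ht => by
    obtain ⟨s, s', rfl⟩ := mem_ln.1 ht
    rw [smul_add, lin_smul hσ, lin_smul hσ, gu, gv], fun x hx => by
    have k1 := Hu (x - polar Q x w2 • x2) ((pp3 _ _).2 ⟨Submodule.sub_mem _ hx (Submodule.smul_mem _ _ n2), by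
      rw [polar_sub_left, polar_smul_left, p22, smul_eq_mul, mul_one, sub_self]⟩)
    have k2 := Hv (polar Q x w2 • x2) ((pp3 _ _).2 ⟨Submodule.smul_mem _ _ n2, by
      rw [polar_smul_left, p21, smul_zero]⟩)
    have := Submodule.add_mem _ k1 k2
    rw [smul_sub] at this
    convert this using 1
    abel⟩
  obtain ⟨y1, l1, y2, l2, eg⟩ := h.mem_NT_ln r gN
  have cm : ∀ s1 ∈ pp Q (ln F u v), ∀ s2 ∈ pp Q (ln F u v), polar Q s1 w2 = polar Q s2 w1 →
      polar Q s1 y2 = polar Q s2 y1 := by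
    intro s1 h1 s2 h2 e
    have mm := mem s1 h1 s2 h2 e
    rw [polar_comm Q s2, ← ob_comm h r l1 l2 h1 h2, ← eg]
    rcases H _ mm with e1 | e1
    · exact mul_inv_eq_iff_eq_mul.1 e1
    · exfalso
      have := h.NT_comm r.ts gN mm.1
      rw [h.DT_ln r, commutatorElement_def, e1, mul_inv_cancel_right] at this
      obtain ⟨s, hs⟩ := (mem_Z r.qu r.uv).1 this
      exact hn _ _ r.qu (by rw [polar_smul_right, r.uv, smul_zero]) hs
  have c12 := cm x2 n2 x1 n1 (p22.trans p11.symm)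
  have q2 : ∀ x ∈ pp Q (ln F u v), polar Q x y2 = polar Q x w2 * polar Q x1 y1 := fun x hx => by
    have := cm (x - polar Q x w2 • x2) (Submodule.sub_mem _ hx (Submodule.smul_mem _ _ n2)) 0 z0 (by
      rw [polar_sub_left, polar_smul_left, p22, smul_eq_mul, mul_one, sub_self, polar_zero_left])
    rw [polar_sub_left, polar_smul_left, c12, polar_zero_left, smul_eq_mul] at this
    exact sub_eq_zero.1 this
  have q1 : ∀ x ∈ pp Q (ln F u v), polar Q x y1 = polar Q x w1 * polar Q x1 y1 := fun x hx => by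
    have := cm 0 z0 (x - polar Q x w1 • x1) (Submodule.sub_mem _ hx (Submodule.smul_mem _ _ n1)) (by
      rw [polar_sub_left, polar_smul_left, p11, smul_eq_mul, mul_one, sub_self, polar_zero_left])
    rw [polar_sub_left, polar_smul_left, polar_zero_left, smul_eq_mul] at this
    exact sub_eq_zero.1 this.symm
  have fin : ∀ δ : SI Q, δ ≠ 1 → (∀ x ∈ pp Q (ln F u v), δ • x = x) → δ = ρ Q u v := by
    intro δ d1 d2
    have : δ ∈ Z Q u v := h.DT_ln r ▸ mem_DT.2 ⟨σ_eq_one hq _, d2⟩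
    obtain ⟨s, hs⟩ := (mem_Z r.qu r.uv).1 this
    rcases zero_or_one hq s with rfl | rfl
    · exact absurd (by rw [hs, zero_smul, ρ_zero]) d1
    · rw [hs, one_smul]
  rcases zero_or_one hq (polar Q x1 y1) with c | c
  · left
    exact fin γ g1 fun x hx => by
      rw [eg, ob_act h r l1 l2 hx, q1 x hx, q2 x hx, c]; simp
  · right
    have := fin (a * γ) (fun e => g2 (by rw [← one_mul γ, ← a2, mul_assoc, e, mul_one])) fun x hx => by
      have e1 : γ • x = a • x := by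
        rw [eg, ea, ob_act h r l1 l2 hx, ob_act h r m1 m2 hx, q1 x hx, q2 x hx, c, mul_one, mul_one]
      rw [mul_smul, e1, ← mul_smul, a2, one_smul]
    rw [← this, ← mul_assoc, a2, one_mul]

end CfsgLib.F22W
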